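import Cfsg.Agent.Lib.Helper3.Stcs6

set_option autoImplicit false
set_option maxRecDepth 100000

namespace Cfsg.Agent.Lib.Helper3.L42

open Cfsg.Agent.Lib.Helper11 Cfsg.Agent.Lib.Helper3

set_option maxHeartbeats 0

noncomputable def ntl : List (List (ℕ × ℕ)) := [[], [(0x34, 8), (0x60d, 4), (0x2002, 2), (0x4141, 1), (0x2002, 2), (0x20c, 4), (0x1c, 8)], [(0xa, 8), (0x30e, 4), (0x3210, 2), (0x4441, 1), (0x2000, 2), (0x20c, 4), (0x70, 8)], [(0x1c, 8), (0x201, 4), (0x2020, 2), (0x4114, 1), (0x2020, 2), (0x600, 4), (0x34, 8)], [(0xd, 8), (0xc0d, 4), (0x3001, 2), (0x1141, 1), (0x2020, 2), (0xe0c, 4), (0x74, 8)], [(0x3a, 8), (0x30c, 4), (0x2332, 2), (0x4040, 1), (0x2020, 2), (0xa, 4), (0x60, 8)], [(0x8e, 8), (0xb0e, 4), (0x1232, 2), (0x1004, 1), (0x2, 2), (0xc0c, 4), (0xc0, 8)], [(0xfa, 8), (0x304, 4), (0x2132, 2), (0x4144, 1), (0x222, 2), (0x0, 4), (0x80, 8)], [(0x80, 8), (0x500, 4),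 (0x1012, 2), (0x4414, 1), (0x2202, 2), (0x4, 4), (0xfa, 8)], [(0x2a, 8), (0x102, 4), (0x12, 2), (0x1450, 1), (0x0, 2), (0x8, 4), (0x2e, 8)], [(0x2e, 8), (0x308, 4), (0x22, 2), (0x550, 1), (0x0, 2), (0x202, 4), (0x2a, 8)], [(0x6e, 8), (0x906, 4), (0x3110, 2), (0x5050, 1), (0x0, 2), (0x80c, 4), (0x72, 8)], [(0x72, 8), (0x70c, 4), (0x1320, 2), (0x550, 1), (0x0, 2), (0x606, 4), (0x6e, 8)], [(0x80, 8), (0x808, 4), (0x330, 2), (0x550, 1), (0x0, 2), (0x808, 4), (0x80, 8)], [(0x80, 8), (0x808, 4), (0x0, 2), (0x550, 1), (0x0, 2), (0x808, 4), (0x80, 8)], [(0x70, 8), (0x708, 4), (0x0, 2), (0x0, 1), (0x0, 2), (0x0, 4), (0x70, 8)]]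
noncomputable def INV : ℕ := 583705000955352449060960
abbrev deg : ℕ := 15

theorem setup : NetSetup ntl deg 4 INV 15 where
  hok := by decide +kernel
  hstab := by decide +kernel
  hlen := by decide +kernel
  h0 := by decide +kernel
  hINV := by decide +kernel
  hINV0 := by decide +kernel
  htriv := by decide +kernel

end Cfsg.Agent.Lib.Helper3.L42
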