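import Mathlib

set_option autoImplicit false
set_option maxRecDepth 100000

namespace Cfsg.Agent.Lib.Helper3.L42.L4

noncomputable def fc0_0 (i : ℕ) : ℕ := (nat_lit 0x70000cd0000060000ed0000070000ae0000050000ee00000600006e0000030000ce00000500006d0000030000ad00000400004d00000200008d0000040000ef00000700008f0000020000cf00000600004f0000010000af00000500002f00000100008e00000400002e00000000006f00000300000f00000000004e00000200000e00000000002d00000100000d)
noncomputable def sc0_0 (i : ℕ) : ℕ := (nat_lit 0x900000600001300001400000c0000040000030007000500000700000400001100000e0000030005000400000700000f00000c0003000300000700000f00000a0003000200000700000d00000a000300010000ffff0000ffff0000ffff0000ffff0000ffff0000ffff0000ffff)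
noncomputable def nc0_0 (i : ℕ) : ℕ := (nat_lit 0x7000006000005000004000003000002000001000000)
noncomputable def cc0_0 (i : ℕ) : ℕ := (nat_lit 0x400000c00000500001500000600001700000200000a00000300001300000700001600000100000800000700001400000300001100000700000d00000100000600000200000f00000000000400000600001200000500001000000600000b00000000000200000400000e000005000009000004000007000000000000000003000005000002000003000001000001)

end Cfsg.Agent.Lib.Helper3.L42.L4
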