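import Cfsg.Agent.Lib.Helper3.L42.Main
import Cfsg.Agent.Lib.Helper3.MatL2

set_option autoImplicit false
set_option maxRecDepth 100000

namespace Cfsg.Agent.Lib.Helper3.L42

open Cfsg.Agent.Lib.Helper11 Cfsg.Agent.Lib.Helper3 Matrix

set_option maxHeartbeats 0

instance factP : Fact (Nat.Prime 2) := ⟨by norm_num⟩

def AL : List (List (ZMod 2)) := [[0, 0, 0, 1], [1, 0, 0, 1], [0, 1, 1, 0], [1, 1, 0, 0]]
def BL : List (List (ZMod 2)) := [[1, 0, 0, 1], [0, 1, 0, 0], [0, 0, 0, 1], [1, 1, 1, 0]]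
def frInvL : List (List (ZMod 2)) := [[1, 1, 0, 1], [0, 1, 0, 1], [0, 0, 1, 0], [0, 1, 0, 0]]
def frAL : List (ZMod 2) := [1, 1, 1, 1]
def frBL : List ℕ := [3, 4, 1, 11]
def frI : Fin 15 := 12
def PT : ℕ := 0xce6af7b3d591248
def CS1 : ℕ := 0x7fff
def CS2 : ℕ := 0x7fff
def IMG1 : ℕ := 0x980a325c6d4be17
def IMG2 : ℕ := 0x692ad8c713e4b05
def pt (i : ℕ) : List (ZMod 2) := ptOf (fun x => (x : ZMod 2)) PT 1 4 i
def witJ : Fin 4 := 0
def witK : Fin 4 := 1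

theorem chk1 : genChkW [AL] pt (fun i => (fun x => (x : ZMod 2)) (tb CS1 1 i)) (tb IMG1 4) ntl 1 15 := by
  decide +kernel
theorem chk2 : genChkW [BL] pt (fun i => (fun x => (x : ZMod 2)) (tb CS2 1 i)) (tb IMG2 4) ntl 2 15 := by
  decide +kernel

end Cfsg.Agent.Lib.Helper3.L42
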